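import Mathlib
import Cfsg.Agent.Lib.Helper95.OFX.Defs

/-!
# OFX package [NORM] (S5977): `g` normalizes `K = F + F α` iff `g α = ± α g`.
-/

set_option autoImplicit false

universe u

namespace Cfsg.Agent.Lib.Helper26.OFX

open Cfsg.Agent.Lib.Helper95.OFX Matrix

/-- In a finite field of odd order, `2 ≠ 0`. -/
theorem two_ne_zero_of_odd_card {F : Type u} [Field F] [Fintype F] (hodd : Odd (Fintype.card F)) :
    (2 : F) ≠ 0 := by
  apply Ring.two_ne_zero
  intro h
  have := FiniteField.even_card_of_char_two h
  rcases hodd with ⟨k, hk⟩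
  omega

/-- a scalar matrix on a nonempty index type vanishes only for the zero scalar -/
theorem smul_one_eq_zero {F : Type u} [Field F] {d : ℕ} (hd : 0 < d) (c : F)
    (h : c • (1 : Matrix (OI d) (OI d) F) = 0) : c = 0 := by
  have := congrFun (congrFun h (Sum.inl ⟨0, hd⟩)) (Sum.inl ⟨0, hd⟩)
  simpa using this

theorem norm_of_pm {F : Type u} [Field F] (d : ℕ)
    (K : Subalgebra F (Matrix (OI d) (OI d) F)) (α : Matrix (OI d) (OI d) F)
    (hK : KIs K α) (g : GL (OI d) F) (ε : F)
    (h1 : (g : Matrix (OI d) (OI d) F) * α * ((g⁻¹ : GL (OI d) F) : Matrix (OI d) (OI d) F)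
      = ε • α)
    (h2 : ((g⁻¹ : GL (OI d) F) : Matrix (OI d) (OI d) F) * α * (g : Matrix (OI d) (OI d) F)
      = ε • α) :
    g ∈ Cfsg.Geo.subalgebraNormalizer K := by
  have hgi : (g : Matrix (OI d) (OI d) F) * ((g⁻¹ : GL (OI d) F) : Matrix (OI d) (OI d) F) = 1 := by
    rw [← Units.val_mul, mul_inv_cancel, Units.val_one]
  have hig : ((g⁻¹ : GL (OI d) F) : Matrix (OI d) (OI d) F) * (g : Matrix (OI d) (OI d) F) = 1 := by
    rw [← Units.val_mul, inv_mul_cancel, Units.val_one]
  intro k
  constructor
  · intro hk
    obtain ⟨x, y, rfl⟩ := (hK k).1 hk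
    refine (hK _).2 ⟨x, y * ε, ?_⟩
    rw [mul_add, add_mul, Matrix.mul_smul, Matrix.smul_mul, Matrix.mul_one, hgi,
      Matrix.mul_smul, Matrix.smul_mul, h1, smul_smul]
  · intro hk
    obtain ⟨x, y, hxy⟩ := (hK _).1 hk
    refine (hK _).2 ⟨x, y * ε, ?_⟩
    have : k = ((g⁻¹ : GL (OI d) F) : Matrix (OI d) (OI d) F) *
        ((g : Matrix (OI d) (OI d) F) * k * ((g⁻¹ : GL (OI d) F) : Matrix (OI d) (OI d) F)) *
        (g : Matrix (OI d) (OI d) F) := by
      rw [← mul_assoc, ← mul_assoc, hig, one_mul, mul_assoc, hig, mul_one]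
    rw [this, hxy, mul_add, add_mul, Matrix.mul_smul, Matrix.smul_mul, Matrix.mul_one, hig,
      Matrix.mul_smul, Matrix.smul_mul, h2, smul_smul]

theorem pkgNorm : Cfsg.Agent.Lib.Helper95.OFX.PkgNorm.{u} := by
  intro F _ _ hodd d K a α ha hα hK g
  have h2 : (2 : F) ≠ 0 := two_ne_zero_of_odd_card hodd
  have hgi : (g : Matrix (OI d) (OI d) F) * ((g⁻¹ : GL (OI d) F) : Matrix (OI d) (OI d) F) = 1 := by
    rw [← Units.val_mul, mul_inv_cancel, Units.val_one]
  have hig : ((g⁻¹ : GL (OI d) F) : Matrix (OI d) (OI d) F) * (g : Matrix (OI d) (OI d) F) = 1 := by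
    rw [← Units.val_mul, inv_mul_cancel, Units.val_one]
  constructor
  · intro hg
    rcases Nat.eq_zero_or_pos d with hd | hd
    · subst hd
      left
      exact Subsingleton.elim _ _
    · have hαK : α ∈ K := (hK α).2 ⟨0, 1, by simp⟩
      obtain ⟨s, t, hst⟩ := (hK _).1 ((hg α).1 hαK)
      -- square both sides
      have hsq : ((g : Matrix (OI d) (OI d) F) * α * ((g⁻¹ : GL (OI d) F) : Matrix (OI d) (OI d) F)) *
          ((g : Matrix (OI d) (OI d) F) * α * ((g⁻¹ : GL (OI d) F) : Matrix (OI d) (OI d) F))
          = a • (1 : Matrix (OI d) (OI d) F) := by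
        calc _ = (g : Matrix (OI d) (OI d) F) * (α * (((g⁻¹ : GL (OI d) F) : Matrix (OI d) (OI d) F)
              * (g : Matrix (OI d) (OI d) F)) * α) * ((g⁻¹ : GL (OI d) F) : Matrix (OI d) (OI d) F) := by
              simp only [mul_assoc]
          _ = a • (1 : Matrix (OI d) (OI d) F) := by
              rw [hig, mul_one, hα, Matrix.mul_smul, Matrix.smul_mul, mul_one, hgi]
      rw [hst] at hsq
      have hexp : (s • (1 : Matrix (OI d) (OI d) F) + t • α) * (s • (1 : Matrix (OI d) (OI d) F) + t • α)
          = (s * s + t * t * a) • (1 : Matrix (OI d) (OI d) F) + (2 * s * t) • α := by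
        simp only [add_mul, mul_add, Matrix.smul_mul, Matrix.mul_smul, Matrix.one_mul, Matrix.mul_one,
          hα, smul_smul, add_smul]
        have : (2 * s * t) • α = (s * t) • α + (t * s) • α := by
          rw [← add_smul]; congr 1; ring
        rw [this]
        have e1 : (t * t * a) • (1 : Matrix (OI d) (OI d) F) = (t * (t * a)) • 1 := by
          congr 1; ring
        rw [e1]
        abel
      rw [hexp] at hsq
      -- (s*s + t*t*a - a) • 1 + (2*s*t) • α = 0
      have hrel : (s * s + t * t * a - a) • (1 : Matrix (OI d) (OI d) F) + (2 * s * t) • α = 0 := by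
        rw [sub_smul, sub_add_eq_add_sub, hsq, sub_self]
      have ha0 : a ≠ 0 := by
        rintro rfl
        exact ha ⟨0, by simp⟩
      have hc2 : 2 * s * t = 0 := by
        by_contra hne
        apply ha
        -- α = c • 1
        have hαc : α = (-(s * s + t * t * a - a) / (2 * s * t)) • (1 : Matrix (OI d) (OI d) F) := by
          have h3 : (2 * s * t) • α = (-(s * s + t * t * a - a)) • (1 : Matrix (OI d) (OI d) F) := by
            rw [neg_smul]
            exact eq_neg_of_add_eq_zero_right hrel
          calc α = (2 * s * t)⁻¹ • ((2 * s * t) • α) := by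
                rw [smul_smul, inv_mul_cancel₀ hne, one_smul]
            _ = _ := by rw [h3, smul_smul]; congr 1; field_simp
        set c := -(s * s + t * t * a - a) / (2 * s * t) with hc
        have h4 : (c * c - a) • (1 : Matrix (OI d) (OI d) F) = 0 := by
          have h5 := hα
          rw [hαc, Matrix.smul_mul, Matrix.mul_smul, mul_one, smul_smul] at h5
          rw [sub_smul, h5, sub_self]
        have h6 := smul_one_eq_zero hd _ h4
        exact ⟨c, by linear_combination -h6⟩
      have hc1 : s * s + t * t * a - a = 0 := by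
        rw [hc2, zero_smul, add_zero] at hrel
        exact smul_one_eq_zero hd _ hrel
      have hst0 : s * t = 0 := by
        have : 2 * (s * t) = 0 := by rw [← mul_assoc]; exact hc2
        exact (mul_eq_zero.1 this).resolve_left h2
      have hs : s = 0 := by
        rcases mul_eq_zero.1 hst0 with hs | ht
        · exact hs
        · exfalso
          apply ha
          subst ht
          exact ⟨s, by linear_combination -hc1⟩
      subst hs
      have ht : t * t = 1 := by
        have : (t * t - 1) * a = 0 := by linear_combination hc1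
        rcases mul_eq_zero.1 this with h | h
        · linear_combination h
        · exact absurd h ha0
      rw [zero_smul, zero_add] at hst
      have hgα : (g : Matrix (OI d) (OI d) F) * α = t • (α * (g : Matrix (OI d) (OI d) F)) := by
        calc (g : Matrix (OI d) (OI d) F) * α
            = ((g : Matrix (OI d) (OI d) F) * α * ((g⁻¹ : GL (OI d) F) : Matrix (OI d) (OI d) F)) *
                (g : Matrix (OI d) (OI d) F) := by
              rw [mul_assoc, hig, mul_one]
          _ = t • (α * (g : Matrix (OI d) (OI d) F)) := by rw [hst, Matrix.smul_mul]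
      rcases mul_self_eq_one_iff.1 ht with h | h
      · left; rw [hgα, h, one_smul]
      · right; rw [hgα, h, neg_smul, one_smul]
  · intro hpm
    rcases hpm with h | h
    · apply norm_of_pm d K α hK g 1
      · rw [h, mul_assoc, hgi, mul_one, one_smul]
      · rw [mul_assoc, ← h, ← mul_assoc, hig, one_mul, one_smul]
    · apply norm_of_pm d K α hK g (-1)
      · rw [h, Matrix.neg_mul, mul_assoc, hgi, mul_one, neg_smul, one_smul]
      · have h' : α * (g : Matrix (OI d) (OI d) F) = -((g : Matrix (OI d) (OI d) F) * α) := by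
          rw [h, neg_neg]
        rw [mul_assoc, h', Matrix.mul_neg, ← mul_assoc, hig, one_mul, neg_smul, one_smul]

end Cfsg.Agent.Lib.Helper26.OFX
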