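import Mathlib
import Cfsg.Agent.Lib.Helper95.OFX.Defs

/-!
# OFX package [ZPM] (S5977): an isometry of the plus form with scalar square has square `± 1`.
-/

set_option autoImplicit false

universe u

namespace Cfsg.Agent.Lib.Helper26.OFX

open Cfsg.Agent.Lib.Helper95.OFX Matrix

theorem pkgZPM : Cfsg.Agent.Lib.Helper95.OFX.PkgZPM.{u} := by
  intro F _ d hd x hx z hz
  have h0 : 0 < d := hd
  let i0 : Fin d := ⟨0, h0⟩
  let v : OI d → F :=
    Sum.elim (fun i => if i = i0 then (1 : F) else 0) (fun i => if i = i0 then (1 : F) else 0)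
  have hv : Cfsg.quadFormPlus d F v = 1 := by
    simp [Cfsg.quadFormPlus, v]
  have hx1 : ∀ w : OI d → F,
      Cfsg.quadFormPlus d F ((x : Matrix (OI d) (OI d) F) *ᵥ w) = Cfsg.quadFormPlus d F w :=
    fun w => hx w w
  have h1 : Cfsg.quadFormPlus d F
      ((x : Matrix (OI d) (OI d) F) *ᵥ ((x : Matrix (OI d) (OI d) F) *ᵥ v)) = 1 := by
    rw [hx1, hx1, hv]
  rw [Matrix.mulVec_mulVec, hz, Matrix.smul_mulVec, Matrix.one_mulVec] at h1
  have h2 : Cfsg.quadFormPlus d F (z • v) = z * z := by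
    simp [Cfsg.quadFormPlus, v]
  rw [h2] at h1
  exact mul_self_eq_one_iff.mp h1

end Cfsg.Agent.Lib.Helper26.OFX
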